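import Cfsg.Agent.Lib.Cyc.One

/-!
# The principal block for a cyclic trivial intersection Sylow subgroup
-/

namespace Cfsg.Lib.Cyc

open _root_.Cfsg.Lib.Block MonoidAlgebra Cfsg.Lib.Char Cfsg.Lib.Modular Cfsg.Lib.Transfer Subgroup
open Cfsg.Lib.Misc Cfsg.Lib.Induce Finset
open scoped ComplexConjugate

variable {G : Type*} [Group G] [Finite G] {p : ℕ} [hp : Fact p.Prime] {M : Ideal AlgInt}
  [Modular p M] {R : Subgroup G} {g : G}

omit [Modular p M] in
theorem exists_conj_mem_secA_of_cyclic (P : Sylow p G) (hP : IsCyclic P) (hR : R ≤ P)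
    (hR' : Nat.card R = p) (hg : p ∣ orderOf g) : ∃ w, w * g * w⁻¹ ∈ secA p R := by
  obtain ⟨_, hw, h⟩ := exists_isConj_mem_sylow P (pElt_pPart hp.out g)
  obtain ⟨w, rfl⟩ := isConj_iff.1 h
  refine ⟨w, show R ≤ _ from ?_⟩
  rw [pPart_conj]
  exact le_of_ne_bot_of_card hP P.isPGroup' hR hR' (zpowers_le.2 hw)
    (by simpa using (pPart_ne_one_iff hp.out).2 hg)

theorem exists_dade_principal_of_ti (P : Sylow p G) (hP : IsCyclic P) (h1 : (P : Subgroup G) ≠ ⊥)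
    (hC : ∀ x ∈ (P : Subgroup G), x ≠ 1 →
      centralizer ({x} : Set G) ≤ centralizer ((P : Subgroup G) : Set G)) :
    ∃ F X Ξ δ b, Dade p M (principalBlock M G) (Nat.card P)
      ((centralizer ((P : Subgroup G) : Set G)).relIndex (normalizer ((P : Subgroup G) : Set G)))
        F X Ξ δ b ∧ ∀ ξ ∈ Ξ, ∀ g, p ∣ orderOf g → (ξ : G → ℂ) g = -b ξ := by
  have := Fintype.ofFinite G
  obtain ⟨R, hR, hRp⟩ := exists_le_card_eq P.isPGroup' h1
  have hR0 : R ≠ ⊥ := fun h => hp.out.one_lt.ne' (by simp [← hRp, h])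
  have hm := (isInducedBlock_principal (M := M) P.isPGroup').isMaxPair
    (isDefectGroup_principal_iff.2 ⟨P, rfl⟩)
  obtain ⟨f, hL, hs⟩ := exists_loc_sub Block.isPBlock_principalBlock hP hR hm
  obtain rfl := hL.ind.eq_principal_iff.1 rfl
  obtain ⟨v, ψ, hv, hψ, X, Ξ, δ, b, h⟩ := hL.exists_dade' hRp
  obtain ⟨⟨x, hx⟩, hx1⟩ := ne_bot_iff_exists_ne_one.1 hR0
  have h4 : ψ 1 = irrOne _ := (hψ.eq_one_of_apply (mem_center_iff.2 fun c => Subtype.ext
    (hC x (hR hx) (fun h => hx1 (Subtype.ext h)) (centralizer_le (by simpa using hx) c.2) _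
      (hv.ge (mem_zpowers _))).symm) Block.irrOne_mem_principalBlock rfl).symm
  have h3 := relIndex_inert_eq hm hP hs hR0
  rw [show normalizer _ ⊓ stab _ = _ from inert_principal] at h3
  refine ⟨_, X, Ξ, δ, b, h3 ▸ h, fun ξ hξ g hg => ?_⟩
  obtain ⟨w, hw⟩ := exists_conj_mem_secA_of_cyclic P hP hR hRp hg
  have h2 := h.singΞ ξ hξ g hg
  rw [← isClassFunction_secInd _ g w, secInd_apply_of_forall _ hw (a := 1) fun _ _ _ _ => by
    rw [h4]; rfl, ← mul_neg, ← inert_principal (M := M),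
    mul_right_inj' (Nat.cast_ne_zero.2 h.pos.ne')] at h2
  have h3 : (b ξ : ℂ) * b ξ = 1 := by exact_mod_cast h.mul_self_b hξ
  linear_combination b ξ * h2 - (ξ : G → ℂ) g * h3

end Cfsg.Lib.Cyc
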